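import Cfsg.Agent.H51.Balanced
import Cfsg.Prelude.Def_Balance

/-!
# Balance from balance of the component automizers
-/

set_option autoImplicit false
set_option linter.style.haveILetI false

namespace Cfsg.Agent.H51

open Subgroup
open scoped commutatorElement

variable {G : Type*} [Group G]

/-- `L ∩ C(L)` lies in the Fitting subgroup for a component `L`. -/
theorem component_inf_centralizer_le_fitting {L : Subgroup G} (hL : IsComponent L) :
    L ⊓ centralizer (L : Set G) ≤ fittingSubgroup G := by
  refine le_trans (fun z hz => ?_) (layer_inf_centralizer_layer_le_fitting G)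
  refine mem_inf.mpr ⟨component_le_layer hL hz.1, ?_⟩
  have : layer G ≤ centralizer ({z} : Set G) := sSup_le fun K hK => by
    rcases component_eq_or_commute hK hL with rfl | h
    · exact fun y hy => mem_centralizer_singleton_iff.mpr (mem_centralizer_iff.mp hz.2 y hy)
    · exact (commutator_eq_bot_iff_le_centralizer.mp h).trans
        (centralizer_le (Set.singleton_subset_iff.mpr hz.1))
  exact mem_centralizer_iff.mpr fun y hy => mem_centralizer_singleton_iff.mp (this hy)

/-- An element normalizing `A` normalizes `O_{p'}(A)`. -/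
theorem normalizer_le_normalizer_pPrimeCore_map (p : ℕ) (A : Subgroup G) :
    normalizer (A : Set G) ≤ normalizer (((pPrimeCore p A).map A.subtype : Subgroup G) : Set G) := by
  intro g hg
  rw [mem_normalizer_iff_map_conj_eq] at hg ⊢
  have aux : ∀ B : Subgroup G, A.map (MulAut.conj g).toMonoidHom = B →
      ((pPrimeCore p A).map A.subtype).map (MulAut.conj g).toMonoidHom =
        (pPrimeCore p B).map B.subtype := by
    rintro B rfl
    rw [← pPrimeCore_map_equiv p (A.equivMapOfInjective _ (MulAut.conj g).injective), map_map,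
      map_map]
    rfl
  exact aux A hg

/-- `O_{p'}(C(x))` centralizes a component whose automizer containing `x` is balanced. -/
theorem component_commute_of_balanced_automizer [Finite G] {p : ℕ} [hp : Fact p.Prime]
    (hO : pPrimeCore p G = ⊥) {x : G} (hx : orderOf x = p) {L : Subgroup G} (hL : IsComponent L)
    (heq : ⁅L, zpowers x⁆ = L)
    (h : ∀ H : Subgroup G, L ≤ H → (L.subgroupOf H).Normal →
      ∀ [((centralizer (L : Set G)).subgroupOf H).Normal],
        IsBalancedFor p (H ⧸ (centralizer (L : Set G)).subgroupOf H)) :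
    ⁅L, centralizerPPrimeCore p x⁆ = ⊥ := by
  set D := centralizerPPrimeCore p x with hD
  have hxN : x ∈ normalizer (L : Set G) := by
    have := (normalizer_commutator_ge_right L (zpowers x)) (mem_zpowers x)
    rwa [heq] at this
  have hDN : D ≤ normalizer (L : Set G) := centralizerPPrimeCore_le_normalizer_component hO hx hL
  set H := L ⊔ zpowers x ⊔ D with hH
  have hLH : L ≤ H := le_sup_left.trans le_sup_left
  have hxH : x ∈ H := mem_sup_left (mem_sup_right (mem_zpowers x))
  have hDH : D ≤ H := le_sup_right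
  have hHN : H ≤ normalizer (L : Set G) :=
    sup_le (sup_le le_normalizer (zpowers_le.mpr hxN)) hDN
  haveI hLn : (L.subgroupOf H).Normal := normal_subgroupOf_of_le_normalizer hHN
  have hCn : H ≤ normalizer (centralizer (L : Set G) : Set G) := by
    rw [le_normalizer_iff]
    intro a ha c hc
    refine mem_centralizer_iff.mpr fun l hl => ?_
    have hl' : a⁻¹ * l * a ∈ L := by
      have := (mem_normalizer_iff.mp (inv_mem (hHN ha)) l).mp hl
      rwa [inv_inv] at this
    have h1 := mem_centralizer_iff.mp hc _ hl'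
    calc l * (a * c * a⁻¹) = a * (a⁻¹ * l * a * c) * a⁻¹ := by group
      _ = a * (c * (a⁻¹ * l * a)) * a⁻¹ := by rw [h1]
      _ = a * c * a⁻¹ * l := by group
  haveI hCnorm : ((centralizer (L : Set G)).subgroupOf H).Normal :=
    normal_subgroupOf_of_le_normalizer hCn
  have hbal := h H hLH hLn
  set C0 := (centralizer (L : Set G)).subgroupOf H
  set π := QuotientGroup.mk' C0 with hπ
  -- the image of `x` has order `p`
  have hxb : orderOf (π ⟨x, hxH⟩) = p := by
    refine orderOf_eq_prime ?_ fun h1 => ?_
    · rw [← map_pow, show (⟨x, hxH⟩ : H) ^ p = 1 from Subtype.ext (hx ▸ pow_orderOf_eq_one x),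
        map_one]
    · have hc : x ∈ centralizer (L : Set G) :=
        (QuotientGroup.eq_one_iff (⟨x, hxH⟩ : H)).mp h1
      refine component_ne_bot hL ?_
      rw [← heq, commutator_comm, commutator_eq_bot_iff_le_centralizer]
      exact zpowers_le.mpr hc
  -- `O_{p'}` of the automizer is trivial
  have hcore : pPrimeCore p (H ⧸ C0) = ⊥ := by
    set Y := (pPrimeCore p (H ⧸ C0)).comap π with hY
    have hHY : H ≤ normalizer ((Y.map H.subtype : Subgroup G) : Set G) := by
      have := le_normalizer_map (H := Y) H.subtype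
      rwa [normalizer_eq_top (H := Y), ← MonoidHom.range_eq_map, range_subtype] at this
    rcases component_le_or_commute_of_le_normalizer hL (hLH.trans hHY) with h1 | h1
    · exfalso
      obtain ⟨Q⟩ : Nonempty (Sylow p L) := inferInstance
      have hQ : (Q : Subgroup L) ≤ center L := by
        intro q hq
        obtain ⟨y, hy, hyq⟩ := h1 q.2
        obtain ⟨k, hk⟩ := Q.isPGroup'.exists_card_eq
        have h2 : orderOf (π y) ∣ p ^ k := (orderOf_map_dvd π y).trans (by
          rw [← orderOf_coe y, show (y : G) = q from hyq, orderOf_coe q]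
          exact hk ▸ orderOf_dvd_natCard _ hq)
        have h3 : orderOf (π y) ∣ Nat.card (pPrimeCore p (H ⧸ C0)) := orderOf_dvd_natCard _ hy
        have h4 : (y : G) ∈ centralizer (L : Set G) :=
          (QuotientGroup.eq_one_iff y).mp (orderOf_eq_one_iff.mp
            (Nat.eq_one_of_dvd_coprimes ((pPrimeCore_coprime p _).symm.pow_left k) h2 h3))
        rw [show (y : G) = q from hyq] at h4
        exact mem_center_iff.mpr fun z => Subtype.ext (mem_centralizer_iff.mp h4 z z.2)
      exact Q.not_dvd_index ((dvd_index_center_of_component hO hL).trans (index_dvd_of_le hQ))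
    · rw [← map_comap_eq_self_of_surjective (QuotientGroup.mk'_surjective C0)
        (pPrimeCore p (H ⧸ C0)), Subgroup.map_eq_bot_iff, QuotientGroup.ker_mk']
      intro y hy
      rw [commutator_comm, commutator_eq_bot_iff_le_centralizer] at h1
      exact h1 ⟨y, hy, rfl⟩
  -- the centralizer of the image of `x` normalizes the image of `T`
  set Z := L ⊓ centralizer (L : Set G) with hZ
  have hZR : Z ≤ pCore p G := fittingSubgroup_eq_pCore hO ▸ component_inf_centralizer_le_fitting hL
  set A := centralizer ({x} : Set G) ⊓ H ⊓ centralizer (Z : Set G) with hA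
  have hDA : D ≤ A := le_inf (le_inf (map_subtype_le _) hDH)
    ((centralizerPPrimeCore_le_centralizer_pCore hx).trans (centralizer_le hZR))
  set T := (pPrimeCore p A).map A.subtype with hT
  have hDT : D ≤ T := by
    rw [← map_subgroupOf_eq_of_le hDA]
    refine map_mono (le_pPrimeCore (normal_subgroupOf_of_le_normalizer
      ((inf_le_left.trans inf_le_left).trans (le_normalizer_pPrimeCore_map p _))) ?_)
    rw [Nat.card_congr (subgroupOfEquivOfLe hDA).toEquiv]
    exact card_pPrimeCore_map_coprime p _
  -- `H / L` centralizes `x`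
  have hHL : ∀ a ∈ H, ⁅a, x⁆ ∈ L := by
    intro a ha
    let π' := QuotientGroup.mk' (L.subgroupOf H)
    let K := (centralizer ({π' ⟨x, hxH⟩} : Set (H ⧸ L.subgroupOf H))).comap π'
    have hK : H ≤ K.map H.subtype := by
      refine sup_le (sup_le ?_ (zpowers_le.mpr ⟨⟨x, hxH⟩, ?_, rfl⟩)) ?_
      · intro l hl
        refine ⟨⟨l, hLH hl⟩, mem_comap.mpr ?_, rfl⟩
        rw [show π' ⟨l, hLH hl⟩ = 1 from (QuotientGroup.eq_one_iff _).mpr hl]
        exact one_mem _
      · exact mem_comap.mpr (mem_centralizer_singleton_iff.mpr rfl)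
      · intro d hd
        refine ⟨⟨d, hDH hd⟩, mem_comap.mpr (mem_centralizer_singleton_iff.mpr ?_), rfl⟩
        rw [← map_mul, ← map_mul]
        exact congrArg π' (Subtype.ext (mem_centralizer_singleton_iff.mp (map_subtype_le _ hd :
          d ∈ centralizer ({x} : Set G))))
    obtain ⟨b, hb, rfl⟩ := hK ha
    have hb' : π' ⁅b, ⟨x, hxH⟩⁆ = 1 := by
      rw [map_commutatorElement, commutatorElement_eq_one_iff_mul_comm]
      exact mem_centralizer_singleton_iff.mp hb
    exact (QuotientGroup.eq_one_iff (⁅b, ⟨x, hxH⟩⁆ : H)).mp hb'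
  have hnormT : ∀ a : H, π a ∈ centralizer ({π ⟨x, hxH⟩} : Set (H ⧸ C0)) →
      (a : G) ∈ normalizer (T : Set G) := by
    intro a ha
    refine normalizer_le_normalizer_pPrimeCore_map p A ?_
    have hzC : ⁅(a : G), x⁆ ∈ centralizer (L : Set G) := by
      refine (QuotientGroup.eq_one_iff (N := C0) (⁅a, ⟨x, hxH⟩⁆ : H)).mp ?_
      show π ⁅a, ⟨x, hxH⟩⁆ = 1
      rw [map_commutatorElement, commutatorElement_eq_one_iff_mul_comm]
      exact mem_centralizer_singleton_iff.mp ha
    have hz : ⁅(a : G), x⁆ ∈ Z := ⟨hHL a a.2, hzC⟩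
    have haZ : ∀ z ∈ Z, (a : G) * z * (a : G)⁻¹ ∈ Z := fun z hz' =>
      ⟨(mem_normalizer_iff.mp (hHN a.2) z).mp hz'.1, (mem_normalizer_iff.mp (hCn a.2) z).mp hz'.2⟩
    have hinv : (a : G)⁻¹ ∈ normalizer (A : Set G) := by
      refine mem_normalizer_iff_map_conj_eq.mpr (eq_of_le_of_card_ge ?_
        (card_map_of_injective (MulAut.conj (a : G)⁻¹).injective).ge)
      rintro _ ⟨w, ⟨⟨hw1, hw2⟩, hw3⟩, rfl⟩
      show (a : G)⁻¹ * w * ((a : G)⁻¹)⁻¹ ∈ A
      rw [inv_inv]
      refine mem_inf.mpr ⟨mem_inf.mpr ⟨mem_centralizer_singleton_iff.mpr ?_,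
        mul_mem (mul_mem (inv_mem a.2) hw2) a.2⟩, mem_centralizer_iff.mpr fun z hz' => ?_⟩
      · have hwx := mem_centralizer_singleton_iff.mp hw1
        have hwz := mem_centralizer_iff.mp hw3 _ hz
        have e : (a : G) * x * (a : G)⁻¹ = ⁅(a : G), x⁆ * x := by
          rw [commutatorElement_def, inv_mul_cancel_right]
        calc (a : G)⁻¹ * w * a * x
            = (a : G)⁻¹ * (w * ((a : G) * x * (a : G)⁻¹)) * a := by group
          _ = (a : G)⁻¹ * (((a : G) * x * (a : G)⁻¹) * w) * a := by
              rw [e, ← mul_assoc w, ← hwz, mul_assoc _ w x, hwx]; group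
          _ = x * ((a : G)⁻¹ * w * a) := by group
      · have hwz := mem_centralizer_iff.mp hw3 _ (haZ z hz')
        calc z * ((a : G)⁻¹ * w * a) = (a : G)⁻¹ * ((a : G) * z * (a : G)⁻¹ * w) * a := by group
          _ = (a : G)⁻¹ * (w * ((a : G) * z * (a : G)⁻¹)) * a := by rw [hwz]
          _ = (a : G)⁻¹ * w * a * z := by group
    simpa using inv_mem hinv
  -- conclusion
  set Cb := centralizer ({π ⟨x, hxH⟩} : Set (H ⧸ C0)) with hCb
  set Tb := (T.subgroupOf H).map π with hTb
  have hTC : Tb ≤ Cb := by
    rintro _ ⟨t, ht, rfl⟩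
    refine mem_centralizer_singleton_iff.mpr ?_
    rw [← map_mul, ← map_mul]
    exact congrArg π (Subtype.ext (mem_centralizer_singleton_iff.mp ((map_subtype_le _ ht).1.1)))
  have hTn : (Tb.subgroupOf Cb).Normal := by
    refine normal_subgroupOf_of_le_normalizer ?_
    intro c hc
    obtain ⟨a, rfl⟩ := QuotientGroup.mk'_surjective C0 c
    have ha : a ∈ normalizer (T.subgroupOf H : Set H) := by
      rw [mem_normalizer_iff]
      intro y
      exact mem_normalizer_iff.mp (hnormT a hc) y
    exact le_normalizer_map (H := T.subgroupOf H) π ⟨a, ha, rfl⟩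
  have hTp : (Nat.card (Tb.subgroupOf Cb)).Coprime p := by
    rw [Nat.card_congr (subgroupOfEquivOfLe hTC).toEquiv]
    refine (card_pPrimeCore_map_coprime p A).coprime_dvd_left ((card_map_dvd _ _).trans ?_)
    rw [Nat.card_congr (equivMapOfInjective _ _ H.subtype_injective).toEquiv, subgroupOf_map_subtype]
    exact card_dvd_of_le inf_le_left
  have hTbot : Tb ≤ ⊥ := by
    calc Tb = (Tb.subgroupOf Cb).map Cb.subtype := (map_subgroupOf_eq_of_le hTC).symm
      _ ≤ (pPrimeCore p Cb).map Cb.subtype := map_mono (le_pPrimeCore hTn hTp)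
      _ ≤ pPrimeCore p (H ⧸ C0) := hbal _ hxb
      _ = ⊥ := hcore
  rw [commutator_comm, commutator_eq_bot_iff_le_centralizer]
  intro d hd
  have : π ⟨d, hDH hd⟩ = 1 := mem_bot.mp
    (hTbot ⟨⟨d, hDH hd⟩, mem_subgroupOf.mpr (hDT hd), rfl⟩)
  exact (QuotientGroup.eq_one_iff (⟨d, hDH hd⟩ : H)).mp this

/-- `G` is balanced for `p` when its component automizers are. -/
theorem isBalancedFor_of_automizers [Finite G] {p : ℕ} [hp : Fact p.Prime]
    (hO : pPrimeCore p G = ⊥)
    (h : ∀ L : Subgroup G, IsComponent L → ∀ H : Subgroup G, L ≤ H → (L.subgroupOf H).Normal →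
      ∀ [((centralizer (L : Set G)).subgroupOf H).Normal],
        IsBalancedFor p (H ⧸ (centralizer (L : Set G)).subgroupOf H)) :
    IsBalancedFor p G := by
  intro x hx
  have hc : ∀ L : Subgroup G, IsComponent L → ⁅centralizerPPrimeCore p x, L⁆ = ⊥ := by
    intro L hL
    rw [commutator_comm]
    by_cases heq : ⁅L, zpowers x⁆ = L
    · exact component_commute_of_balanced_automizer hO hx hL heq (h L hL)
    · exact component_commute_centralizerPPrimeCore hO hx hL heq
  have h1 : centralizerPPrimeCore p x ≤ centralizer (generalizedFittingSubgroup G : Set G) := by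
    refine commutator_eq_bot_iff_le_centralizer.mp (commutator_sup_right_eq_bot
      (commutator_layer_eq_bot hc) (commutator_eq_bot_iff_le_centralizer.mpr ?_))
    rw [fittingSubgroup_eq_pCore hO]
    exact centralizerPPrimeCore_le_centralizer_pCore hx
  have h2 : centralizerPPrimeCore p x ≤ pCore p G :=
    fittingSubgroup_eq_pCore hO ▸ h1.trans (centralizer_generalizedFitting_le_fitting G)
  exact ((le_inf h2 le_rfl).trans (disjoint_of_pgroup_coprime (pCore_isPGroup p G)
    (card_pPrimeCore_map_coprime p _)).le_bot).trans bot_le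

end Cfsg.Agent.H51
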