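import Cfsg.Agent.H51.BalanceAutomizer
import Cfsg.Agent.H22.PResidual
import Cfsg.Agent.H20.Basic
import Cfsg.Prelude.Def_Balance

/-!
# The extended 2-layer
-/

set_option autoImplicit false
set_option linter.style.haveILetI false

namespace Cfsg.Agent.H51

open Subgroup

variable {X : Type*} [Group X]

/-- `O(C_X(U))` as a subgroup of `X`. -/
def centralizerOddCore (U : Subgroup X) : Subgroup X :=
  (pPrimeCore 2 ↥(centralizer (U : Set X))).map (centralizer (U : Set X)).subtype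

/-- Conjugating `O(C(U))`. -/
theorem centralizerOddCore_map_conj (U : Subgroup X) (g : X) :
    (centralizerOddCore U).map (MulAut.conj g).toMonoidHom =
      centralizerOddCore (U.map (MulAut.conj g).toMonoidHom) := by
  have hC : (centralizer (U : Set X)).map (MulAut.conj g).toMonoidHom =
      centralizer ((U.map (MulAut.conj g).toMonoidHom : Subgroup X) : Set X) := by
    ext x
    constructor
    · rintro ⟨c, hc, rfl⟩
      rw [mem_centralizer_iff]
      rintro _ ⟨u, hu, rfl⟩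
      rw [← map_mul, ← map_mul, mem_centralizer_iff.mp hc u hu]
    · intro hx
      refine ⟨g⁻¹ * x * g, ?_, by simp [mul_assoc]⟩
      rw [SetLike.mem_coe, mem_centralizer_iff]
      intro u hu
      have := mem_centralizer_iff.mp hx _ ⟨u, hu, rfl⟩
      have e := congrArg (MulAut.conj g⁻¹) this
      simpa [mul_assoc] using e
  unfold centralizerOddCore
  have aux : ∀ B : Subgroup X, (centralizer (U : Set X)).map (MulAut.conj g).toMonoidHom = B →
      ((pPrimeCore 2 ↥(centralizer (U : Set X))).map (centralizer (U : Set X)).subtype).map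
        (MulAut.conj g).toMonoidHom = (pPrimeCore 2 ↥B).map B.subtype := by
    rintro B rfl
    rw [← pPrimeCore_map_equiv 2 ((centralizer (U : Set X)).equivMapOfInjective _ (MulAut.conj g).injective),
      map_map, map_map]
    rfl
  exact aux _ hC

/-- Elements normalizing `U` normalize `O(C(U))`. -/
theorem normalizer_le_normalizer_centralizerOddCore (U : Subgroup X) :
    normalizer (U : Set X) ≤ normalizer (centralizerOddCore U : Set X) := fun g hg => by
  rw [mem_normalizer_iff_map_conj_eq] at hg ⊢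
  rw [centralizerOddCore_map_conj, hg]

/-- `L_{2'}(X) O_{2',2}(X)` is normal. -/
theorem pLayer_sup_pPrimePCore_normal (X : Type*) [Group X] :
    (pLayer 2 X ⊔ pPrimePCore 2 X).Normal := by
  haveI := pLayer_normal 2 X
  haveI : (pPrimePCore 2 X).Normal := by
    haveI := pPrimeCore_normal 2 X
    exact (pCore_normal 2 _).comap _
  infer_instance

/-- `O(X) ≤ O_{2',2}(X)`. -/
theorem pPrimeCore_le_pPrimePCore (p : ℕ) (X : Type*) [Group X] :
    pPrimeCore p X ≤ pPrimePCore p X := fun x hx => by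
  show QuotientGroup.mk' _ x ∈ pCore p _
  rw [show QuotientGroup.mk' (pPrimeCore p X) x = 1 from (QuotientGroup.eq_one_iff x).mpr hx]
  exact one_mem _

variable [Finite X]

/-- For a Sylow 2-subgroup `T` of `(pLayer 2 X ⊔ pPrimePCore 2 X) = L O_{2',2}`: `(pLayer 2 X ⊔ pPrimePCore 2 X) = (L O) T`. -/
theorem pLayer_sup_pPrimePCore_eq (T : Sylow 2 ↥(pLayer 2 X ⊔ pPrimePCore 2 X)) :
    pLayer 2 X ⊔ pPrimePCore 2 X ≤
      (pLayer 2 X ⊔ pPrimeCore 2 X) ⊔
        (T : Subgroup ↥(pLayer 2 X ⊔ pPrimePCore 2 X)).map (pLayer 2 X ⊔ pPrimePCore 2 X).subtype := by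
  set π := QuotientGroup.mk' (pPrimeCore 2 X) with hπ
  let Tb : Sylow 2 ↥((pLayer 2 X ⊔ pPrimePCore 2 X).map π) := T.mapSurjective (π.subgroupMap_surjective (pLayer 2 X ⊔ pPrimePCore 2 X))
  have hPM : pCore 2 (X ⧸ pPrimeCore 2 X) ≤ (pLayer 2 X ⊔ pPrimePCore 2 X).map π := by
    rw [← map_comap_eq_self_of_surjective (QuotientGroup.mk'_surjective _) (pCore 2 (X ⧸ pPrimeCore 2 X))]
    exact map_mono (f := π) le_sup_right
  haveI := pCore_normal 2 (X ⧸ pPrimeCore 2 X)
  have hP : (pCore 2 (X ⧸ pPrimeCore 2 X)).subgroupOf ((pLayer 2 X ⊔ pPrimePCore 2 X).map π) ≤ (Tb : Subgroup ↥((pLayer 2 X ⊔ pPrimePCore 2 X).map π)) :=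
    IsPGroup.le_sylow_of_normal ((pCore_isPGroup 2 _).comap_of_injective _ ((pLayer 2 X ⊔ pPrimePCore 2 X).map π).subtype_injective) Tb
  have h22 : pPrimePCore 2 X ≤ (pLayer 2 X ⊔ pPrimeCore 2 X) ⊔ (T : Subgroup ↥(pLayer 2 X ⊔ pPrimePCore 2 X)).map (pLayer 2 X ⊔ pPrimePCore 2 X).subtype := by
    intro x hx
    have hxM : π x ∈ (pLayer 2 X ⊔ pPrimePCore 2 X).map π := hPM hx
    obtain ⟨t, ht, e⟩ := hP (x := ⟨π x, hxM⟩) hx
    have e' : π (t : X) = π x := congrArg Subtype.val e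
    have h1 : (t : X)⁻¹ * x ∈ pPrimeCore 2 X := by
      rw [← QuotientGroup.eq_one_iff]
      show π ((t : X)⁻¹ * x) = 1
      rw [map_mul, map_inv, e', inv_mul_cancel]
    have h2 : (t : X) ∈ (pLayer 2 X ⊔ pPrimeCore 2 X) ⊔ (T : Subgroup ↥(pLayer 2 X ⊔ pPrimePCore 2 X)).map (pLayer 2 X ⊔ pPrimePCore 2 X).subtype :=
      mem_sup_right ⟨t, ht, rfl⟩
    have := mul_mem h2 (mem_sup_left (T := (T : Subgroup ↥(pLayer 2 X ⊔ pPrimePCore 2 X)).map (pLayer 2 X ⊔ pPrimePCore 2 X).subtype) (mem_sup_right (S := pLayer 2 X) h1))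
    rwa [mul_inv_cancel_left] at this
  exact sup_le (le_trans le_sup_left le_sup_left) h22

/-- `O(C(T))` moves within `L O O(C(T))` under `(pLayer 2 X ⊔ pPrimePCore 2 X)`. -/
theorem centralizerOddCore_le_of_sylow (T T' : Sylow 2 ↥(pLayer 2 X ⊔ pPrimePCore 2 X)) :
    centralizerOddCore ((T' : Subgroup ↥(pLayer 2 X ⊔ pPrimePCore 2 X)).map
        (pLayer 2 X ⊔ pPrimePCore 2 X).subtype) ≤
      pLayer 2 X ⊔ pPrimeCore 2 X ⊔ centralizerOddCore ((T : Subgroup ↥(pLayer 2 X ⊔ pPrimePCore 2 X)).map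
        (pLayer 2 X ⊔ pPrimePCore 2 X).subtype) := by
  obtain ⟨m, rfl⟩ := MulAction.exists_smul_eq ↥(pLayer 2 X ⊔ pPrimePCore 2 X) T T'
  set U := (T : Subgroup ↥(pLayer 2 X ⊔ pPrimePCore 2 X)).map (pLayer 2 X ⊔ pPrimePCore 2 X).subtype with hU
  have he : ((m • T : Sylow 2 ↥(pLayer 2 X ⊔ pPrimePCore 2 X)) : Subgroup ↥(pLayer 2 X ⊔ pPrimePCore 2 X)).map (pLayer 2 X ⊔ pPrimePCore 2 X).subtype = U.map (MulAut.conj (m : X)).toMonoidHom := by
    rw [hU, Sylow.coe_subgroup_smul, map_map]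
    show ((T : Subgroup ↥(pLayer 2 X ⊔ pPrimePCore 2 X)).map (MulAut.conj m).toMonoidHom).map (pLayer 2 X ⊔ pPrimePCore 2 X).subtype = _
    rw [map_map]
    rfl
  rw [he, ← centralizerOddCore_map_conj]
  haveI := pLayer_normal 2 X
  haveI := pPrimeCore_normal 2 X
  have hmem : (m : X) ∈ ((pLayer 2 X ⊔ pPrimeCore 2 X) ⊔ U : Subgroup X) :=
    pLayer_sup_pPrimePCore_eq T m.2
  rw [← SetLike.mem_coe, normal_mul] at hmem
  obtain ⟨a, ha, t, ht, hat⟩ := hmem
  rintro _ ⟨d, hd, rfl⟩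
  have hdt : t * d * t⁻¹ = d := by
    rw [mem_centralizer_iff.mp (map_subtype_le _ hd) t ht, mul_inv_cancel_right]
  have : (MulAut.conj (m : X)).toMonoidHom d = a * d * a⁻¹ := by
    rw [← hat]
    show a * t * d * (a * t)⁻¹ = _
    calc a * t * d * (a * t)⁻¹ = a * (t * d * t⁻¹) * a⁻¹ := by group
      _ = a * d * a⁻¹ := by rw [hdt]
  rw [this]
  exact mul_mem (mul_mem (mem_sup_left ha) (mem_sup_right hd)) (inv_mem (mem_sup_left ha))

/-- The extended 2-layer from one Sylow subgroup. -/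
theorem extendedTwoLayer_eq (T : Sylow 2 ↥(pLayer 2 X ⊔ pPrimePCore 2 X)) :
    extendedTwoLayer X = pLayer 2 X ⊔ oddCore X ⊔
      centralizerOddCore ((T : Subgroup ↥(pLayer 2 X ⊔ pPrimePCore 2 X)).map
        (pLayer 2 X ⊔ pPrimePCore 2 X).subtype) := by
  refine le_antisymm (sup_le le_sup_left (iSup_le fun T' => centralizerOddCore_le_of_sylow T T')) ?_
  exact sup_le_sup_left (le_iSup (fun T' : Sylow 2 ↥(pLayer 2 X ⊔ pPrimePCore 2 X) =>
    centralizerOddCore ((T' : Subgroup ↥(pLayer 2 X ⊔ pPrimePCore 2 X)).map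
      (pLayer 2 X ⊔ pPrimePCore 2 X).subtype)) T) _

/-- The extended 2-layer is normal. -/
theorem extendedTwoLayer_normal : (extendedTwoLayer X).Normal := by
  haveI := pLayer_normal 2 X
  haveI := pPrimeCore_normal 2 X
  haveI := pLayer_sup_pPrimePCore_normal X
  rw [← normalizer_eq_top_iff, eq_top_iff]
  intro g _
  rw [mem_normalizer_iff_map_conj_eq]
  refine eq_of_le_of_card_ge ?_ (le_of_eq (Nat.card_congr
    (equivMapOfInjective _ _ (MulAut.conj g).injective).toEquiv))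
  rw [map_le_iff_le_comap]
  refine sup_le (sup_le ?_ ?_) (iSup_le fun T => ?_)
  · exact fun x hx => mem_sup_left (mem_sup_left ((pLayer_normal 2 X).conj_mem x hx g))
  · exact fun x hx => mem_sup_left (mem_sup_right ((pPrimeCore_normal 2 X).conj_mem x hx g))
  · rw [← map_le_iff_le_comap]
    show (centralizerOddCore ((T : Subgroup ↥(pLayer 2 X ⊔ pPrimePCore 2 X)).map
      (pLayer 2 X ⊔ pPrimePCore 2 X).subtype)).map (MulAut.conj g).toMonoidHom ≤ _
    let e : MulAut ↥(pLayer 2 X ⊔ pPrimePCore 2 X) := MulAut.conjNormal g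
    let T' : Sylow 2 ↥(pLayer 2 X ⊔ pPrimePCore 2 X) := T.mapSurjective (f := e.toMonoidHom) e.surjective
    rw [centralizerOddCore_map_conj, extendedTwoLayer_eq T']
    refine le_trans (le_of_eq ?_) le_sup_right
    congr 1
    rw [show (T' : Subgroup ↥(pLayer 2 X ⊔ pPrimePCore 2 X)) = (T : Subgroup _).map e.toMonoidHom from rfl,
      map_map, map_map]
    congr 1

/-- The extended 2-layer is `L_{2'}(X)` times an odd order subgroup normalized by a Sylow 2-subgroup. -/
theorem exists_extendedTwoLayer_complement :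
    ∃ F : Subgroup X, Odd (Nat.card ↥F) ∧ (∃ S : Sylow 2 X, (S : Subgroup X) ≤ normalizer (F : Set X)) ∧
      extendedTwoLayer X = pLayer 2 X ⊔ F := by
  haveI := pPrimeCore_normal 2 X
  haveI : (pLayer 2 X ⊔ pPrimePCore 2 X).Normal := pLayer_sup_pPrimePCore_normal X
  obtain ⟨T⟩ : Nonempty (Sylow 2 ↥(pLayer 2 X ⊔ pPrimePCore 2 X)) := inferInstance
  set U := (T : Subgroup ↥(pLayer 2 X ⊔ pPrimePCore 2 X)).map (pLayer 2 X ⊔ pPrimePCore 2 X).subtype with hU
  obtain ⟨S, hS⟩ := (T.isPGroup'.map (pLayer 2 X ⊔ pPrimePCore 2 X).subtype).exists_le_sylow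
  have hUeq : U = (S : Subgroup X) ⊓ (pLayer 2 X ⊔ pPrimePCore 2 X) := by
    refine le_antisymm (le_inf hS (map_subtype_le _)) fun x hx => ?_
    have hmax : (S : Subgroup X).subgroupOf (pLayer 2 X ⊔ pPrimePCore 2 X) = (T : Subgroup ↥(pLayer 2 X ⊔ pPrimePCore 2 X)) :=
      T.is_maximal' (S.isPGroup'.comap_of_injective (pLayer 2 X ⊔ pPrimePCore 2 X).subtype (pLayer 2 X ⊔ pPrimePCore 2 X).subtype_injective)
        (fun y hy => hS ⟨y, hy, rfl⟩)
    exact ⟨⟨x, hx.2⟩, hmax.le hx.1, rfl⟩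
  refine ⟨pPrimeCore 2 X ⊔ centralizerOddCore U, ?_, ⟨S, fun g hg => ?_⟩, ?_⟩
  · rw [sup_comm]
    have h1 := (((pPrimeCore_coprime 2 ↥(centralizer (U : Set X))).coprime_dvd_left
      (card_map_dvd _ (centralizer (U : Set X)).subtype)).mul_left (pPrimeCore_coprime 2 X))
    exact Nat.coprime_two_right.mp (h1.coprime_dvd_left (card_sup_dvd_mul_of_normal _ _))
  · have hgS : g ∈ normalizer ((S : Subgroup X) : Set X) := le_normalizer hg
    have hgU : g ∈ normalizer (U : Set X) := by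
      rw [hUeq, mem_normalizer_iff_map_conj_eq, map_inf _ _ _ (MulAut.conj g).injective,
        mem_normalizer_iff_map_conj_eq.mp hgS,
        mem_normalizer_iff_map_conj_eq.mp (by rw [normalizer_eq_top]; exact mem_top g)]
    rw [mem_normalizer_iff_map_conj_eq, Subgroup.map_sup,
      mem_normalizer_iff_map_conj_eq.mp (normalizer_le_normalizer_centralizerOddCore U hgU),
      mem_normalizer_iff_map_conj_eq.mp (by rw [normalizer_eq_top]; exact mem_top g)]
  · rw [extendedTwoLayer_eq T, sup_assoc]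

/-- A 2-component is normalized by the extended 2-layer. -/
theorem pComponent_le_extendedTwoLayer {K : Subgroup X} (hK : IsPComponent 2 K) :
    K ≤ extendedTwoLayer X ∧ extendedTwoLayer X ≤ normalizer (K : Set X) := by
  refine ⟨(pComponent_le_pLayer hK).trans (le_trans le_sup_left le_sup_left),
    sup_le (sup_le (pLayer_le_normalizer_pComponent hK) (pPrimeCore_le_normalizer_pComponent hK))
      (iSup_le fun T => ?_)⟩
  intro d hd
  set π := QuotientGroup.mk' (pPrimeCore 2 X) with hπ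
  refine pComponent_mem_normalizer hK ?_
  set Kb := K.map π with hKb
  have hKc : IsComponent Kb := hK.2.1
  let Tb : Sylow 2 ↥((pLayer 2 X ⊔ pPrimePCore 2 X).map π) := T.mapSurjective (π.subgroupMap_surjective (pLayer 2 X ⊔ pPrimePCore 2 X))
  have hKM : Kb ≤ (pLayer 2 X ⊔ pPrimePCore 2 X).map π := map_mono ((pComponent_le_pLayer hK).trans le_sup_left)
  have hMn : (pLayer 2 X ⊔ pPrimePCore 2 X).map π ≤ normalizer (Kb : Set (X ⧸ pPrimeCore 2 X)) := by
    rw [Subgroup.map_sup]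
    refine sup_le ((pLayer_map_mk 2).le.trans (layer_le_normalizer_component hKc)) ?_
    refine le_trans (map_comap_le _ _) ((pCore_le_fittingSubgroup 2 _).trans ?_)
    refine le_trans ?_ (centralizer_le_normalizer _)
    rw [← commutator_eq_bot_iff_le_centralizer, commutator_comm]
    exact component_commute_fittingSubgroup hKc
  haveI : (Kb.subgroupOf ((pLayer 2 X ⊔ pPrimePCore 2 X).map π)).Normal := normal_subgroupOf_of_le_normalizer hMn
  have hdiv := dvd_index_center_of_component (p := 2) (pPrimeCore_quotient_self 2) hKc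
  have hsyl := H22.sylow_not_dvd_relIndex_normal Tb (Kb.subgroupOf ((pLayer 2 X ⊔ pPrimePCore 2 X).map π))
  -- a noncentral element of `Kb` fixed by `d`
  obtain ⟨k, hkT, hkc⟩ : ∃ k : ↥((pLayer 2 X ⊔ pPrimePCore 2 X).map π), k ∈ (Tb : Subgroup ↥((pLayer 2 X ⊔ pPrimePCore 2 X).map π)) ∧
      ∃ h : (k : X ⧸ pPrimeCore 2 X) ∈ Kb, (⟨k, h⟩ : ↥Kb) ∉ center ↥Kb := by
    by_contra hcon
    push Not at hcon
    apply hsyl
    refine hdiv.trans ?_
    have hle : (Tb : Subgroup ↥((pLayer 2 X ⊔ pPrimePCore 2 X).map π)).subgroupOf (Kb.subgroupOf ((pLayer 2 X ⊔ pPrimePCore 2 X).map π)) ≤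
        (center ↥Kb).comap (subgroupOfEquivOfLe hKM).toMonoidHom := by
      intro y hy
      exact hcon (y : ↥((pLayer 2 X ⊔ pPrimePCore 2 X).map π)) hy y.2
    have := index_dvd_of_le hle
    rwa [index_comap_of_surjective _ (subgroupOfEquivOfLe hKM).surjective] at this
  obtain ⟨hk, hkz⟩ := hkc
  have hfix : π d * (k : X ⧸ pPrimeCore 2 X) * (π d)⁻¹ = k := by
    obtain ⟨t, ht, e⟩ := hkT
    rw [show (k : X ⧸ pPrimeCore 2 X) = π (t : X) from (congrArg Subtype.val e).symm,
      ← map_mul, ← map_inv, ← map_mul]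
    congr 1
    rw [← mem_centralizer_iff.mp (map_subtype_le _ hd) t ⟨t, ht, rfl⟩, mul_inv_cancel_right]
  rw [mem_normalizer_iff_map_conj_eq]
  rcases component_eq_or_commute (component_map_conj hKc (π d)) hKc with h | h
  · exact h
  · exfalso
    apply hkz
    rw [mem_center_iff]
    intro y
    apply Subtype.ext
    exact mem_centralizer_iff.mp (commutator_eq_bot_iff_le_centralizer.mp h ⟨k, hk, hfix⟩) y y.2

end Cfsg.Agent.H51
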