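import Cfsg.Agent.H51.LocalLayer

/-!
# The layer of a local subgroup fixes every component
-/

set_option autoImplicit false
set_option linter.style.haveILetI false

namespace Cfsg.Agent.H51

open Subgroup
open scoped commutatorElement

variable {G : Type*} [Group G]

/-- If `O_{p'}(G) = 1`, `O_{p'}(N_G(P))` and the preimage of `E(N_G(P)/O_{p'}(N_G(P)))` normalize
every component of `G`. -/
theorem layerPreimage_normalizer_le_componentStabilizer [Finite G] {p : ℕ} [hp : Fact p.Prime]
    (hO : pPrimeCore p G = ⊥) {P : Subgroup G} (hP : IsPGroup p P) :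
    ((layer (normalizer (P : Set G) ⧸ pPrimeCore p (normalizer (P : Set G)))).comap
        (QuotientGroup.mk' (pPrimeCore p (normalizer (P : Set G))))).map
      (normalizer (P : Set G)).subtype ≤
      ⨅ L : {K : Subgroup G // IsComponent K}, normalizer ((L : Subgroup G) : Set G) := by
  haveI := componentStabilizer_normal G
  haveI := layer_normal G
  set St := ⨅ L : {K : Subgroup G // IsComponent K}, normalizer ((L : Subgroup G) : Set G)
  rw [map_le_iff_le_comap]
  set q := QuotientGroup.mk' (pPrimeCore p (normalizer (P : Set G))) with hq
  set T := St.comap (normalizer (P : Set G)).subtype with hT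
  have hEP : layer G ⊓ centralizer (P : Set G) ≤ normalizer (P : Set G) :=
    inf_le_right.trans (centralizer_le_normalizer' P)
  set W := (layer G).subgroupOf (normalizer (P : Set G)) with hW
  have hWT : W ≤ T := fun c hc => mem_comap.mpr (mem_iInf.mpr fun L =>
    layer_le_normalizer_component L.2 hc)
  -- the criterion for elements of the preimage of the layer acting trivially on `W`
  have key : ∀ g : normalizer (P : Set G), (orderOf g).Coprime p →
      q g ∈ layer _ → (∀ c ∈ W, q ⁅g, c⁆ = 1) → g ∈ T := by
    intro g hg hgE hgW
    refine mem_comap.mpr (mem_iInf.mpr fun L => ?_)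
    have hgX : (g : G) ∈ ((layer _).comap q).map (normalizer (P : Set G)).subtype :=
      ⟨g, hgE, rfl⟩
    refine component_fixed_of_pPrime hO hP (by rwa [orderOf_coe])
      (layerPreimage_normalizer_le_centralizer hP hgX)
      (layerPreimage_normalizer_le_centralizer_pCore hP hgX)
      (D := (pPrimeCore p (normalizer (P : Set G))).map (normalizer (P : Set G)).subtype)
      (card_pPrimeCore_map_coprime p _) (hEP.trans (le_normalizer_pPrimeCore_map p _)) ?_ L.2
    intro c hc
    exact ⟨⁅g, (⟨c, hEP hc⟩ : normalizer (P : Set G))⁆,
      (QuotientGroup.eq_one_iff _).mp (hgW _ hc.1), map_commutatorElement _ _ _⟩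
  have hOT : pPrimeCore p (normalizer (P : Set G)) ≤ T := by
    intro g hg
    have hqg : q g = 1 := (QuotientGroup.eq_one_iff g).mpr hg
    refine key g ((pPrimeCore_coprime p _).coprime_dvd_left (orderOf_dvd_natCard _ hg))
      (hqg ▸ one_mem _) fun c _ => ?_
    rw [map_commutatorElement, hqg]
    exact commutatorElement_one_left _
  suffices h : layer (normalizer (P : Set G) ⧸ pPrimeCore p (normalizer (P : Set G))) ≤ T.map q by
    refine (comap_mono (f := q) h).trans ?_
    rw [comap_map_eq, hq, QuotientGroup.ker_mk']
    exact sup_le le_rfl hOT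
  refine sSup_le fun K hK => ?_
  rcases component_le_or_commute_of_normal hK
    ((inferInstance : W.Normal).map q (QuotientGroup.mk'_surjective _)) with h | h
  · exact h.trans (map_mono hWT)
  · rw [← map_comap_eq_self_of_surjective (QuotientGroup.mk'_surjective _) K]
    refine map_mono (le_of_perfect_of_pPrime_elements (p := p)
      (le_top.trans (normalizer_eq_top T).ge) ?_ fun g hgK hg => key g hg ?_ fun c hc => ?_)
    · exact (comap_le_commutator_sup (component_commutator_self hK)).trans
        (sup_le_sup_left hOT _)
    · exact component_le_layer hK hgK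
    · rw [map_commutatorElement, commutatorElement_eq_one_iff_mul_comm]
      exact (mem_centralizer_iff.mp (commutator_eq_bot_iff_le_centralizer.mp h hgK) _
        (mem_map_of_mem q hc)).symm

end Cfsg.Agent.H51
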