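import Mathlib
import Cfsg.Agent.H35.SigFunMain

/-!
Consequence of the solvable signalizer functor theorem: a coprime group is solvable when the fixed
points of the nontrivial elements of an operator group of rank three are.
-/

set_option autoImplicit false
set_option linter.style.haveILetI false
set_option linter.unusedSectionVars false

namespace Cfsg.Agent.H51

open Cfsg Subgroup
open Cfsg.Agent.H35 (SigFun.le_of_points)

universe u

variable {X : Type u} [Group X] [Finite X] {p : ℕ} [hp : Fact p.Prime] {A K : Subgroup X}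

/-- If the closure of every solvable signalizer functor on `A` is a member of its family, then a
`p'`-group normalised by `A` is solvable as soon as the fixed points of all points are. -/
theorem solvable_of_centralizers
    (hclo : ∀ θ : X → Subgroup X, IsSolvableSignalizerFunctor p A θ →
      signalizerClosure A θ ∈ signalizerFamily p A θ)
    (hA : IsElementaryAbelian p A) (hA3 : p ^ 3 ≤ Nat.card A)
    (hAK : A ≤ normalizer (K : Set X)) (hK : (Nat.card K).Coprime p)
    (hsol : ∀ a ∈ A, a ≠ 1 → Group.IsSolvable ↥(K ⊓ centralizer ({a} : Set X))) :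
    Group.IsSolvable K := by
  set θ : X → Subgroup X := fun a => K ⊓ centralizer ({a} : Set X) with hθdef
  have hKp : ¬ p ∣ Nat.card K := (hp.out.coprime_iff_not_dvd).mp hK.symm
  have hθ : IsSolvableSignalizerFunctor p A θ := by
    refine ⟨⟨fun a _ _ => inf_le_right, fun a _ _ hd => hKp (hd.trans (card_dvd_of_le inf_le_left)),
      fun a ha _ b hb x hx => ?_, fun a _ _ b _ _ x hx => ?_⟩, hsol⟩
    · obtain ⟨hxK, hxa⟩ := mem_inf.mp hx
      refine mem_inf.mpr ⟨le_normalizer_iff.mp hAK b hb x hxK, ?_⟩
      have hab := H52.elem_comm hA hb ha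
      have hbC : b ∈ centralizer ({a} : Set X) := mem_centralizer_singleton_iff.mpr hab
      exact mul_mem (mul_mem hbC hxa) (inv_mem hbC)
    · exact mem_inf.mpr ⟨(mem_inf.mp (mem_inf.mp hx).1).1, (mem_inf.mp hx).2⟩
  refine H20.isSolvable_of_le (SigFun.le_of_points hA hA3 hAK hKp fun a ha ha1 => ?_) (hclo θ hθ).1
  exact le_iSup (fun a : {a : X // a ∈ A ∧ a ≠ 1} => θ (a : X)) ⟨a, ha, ha1⟩

end Cfsg.Agent.H51
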